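import Cfsg.Agent.H58.Wreath.SU.Root
import Cfsg.Agent.H5.C7.Pure

/-!
A pure conjugate of a transvection of the right factor lives in one factor; two small lemmas on pairs of
involutions and on the range of an adjoint.
-/

set_option autoImplicit false
set_option linter.unusedSectionVars false

namespace Cfsg.Agent.H83.TensorWreathSU

open Matrix
open Cfsg.Agent.H99.Tensor
open Cfsg.Agent.H99.TensorU (sp)
open Cfsg.Agent.H58.Wreath.SU
open scoped Kronecker

section Split

variable {F : Type*} [Field F] {α : Type} [Fintype α] [DecidableEq α] {b : ℕ}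

local notation "Ix" => α × Fin b

/-- A matrix factoring through `α` which differs from a pure tensor by the identity and squares to zero
comes from one of the two factors. -/
theorem split_of_factor [Nonempty α] [NeZero b] (hb : 3 ≤ b) {J : Matrix Ix α F} {K : Matrix α Ix F}
    (hKJ : K * J = 0) {k : Matrix α α F} {h : Matrix (Fin b) (Fin b) F} (e : 1 + J * K = k ⊗ₖ h) :
    (∃ G : Matrix α α F, J * K = G ⊗ₖ (1 : Matrix (Fin b) (Fin b) F)) ∨
      ∃ N, J * K = (1 : Matrix α α F) ⊗ₖ N := by
  have hB : J * K = k ⊗ₖ h - 1 := by rw [← e]; abel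
  by_cases hsc : ∀ u : Fin b → F, ∃ c : F, h *ᵥ u = c • u
  · -- a scalar right factor
    left
    obtain ⟨z, hz⟩ : ∃ c : F, h = c • (1 : Matrix (Fin b) (Fin b) F) := by
      choose c hc using hsc
      refine ⟨c (Pi.single ⟨0, by omega⟩ 1), Matrix.ext fun i j => ?_⟩
      set i0 : Fin b := ⟨0, by omega⟩
      have hcol : ∀ l m, h l m = c (Pi.single m 1) * (if l = m then 1 else 0) := by
        intro l m
        have := congrFun (hc (Pi.single m 1)) l
        simpa [Matrix.mulVec_single, Pi.single_apply] using this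
      have hall : ∀ m, c (Pi.single m 1) = c (Pi.single i0 1) := by
        intro m
        by_cases hm : m = i0
        · rw [hm]
        have := hc (Pi.single m 1 + Pi.single i0 1)
        rw [Matrix.mulVec_add, hc, hc] at this
        have e1 := congrFun this m
        have e2 := congrFun this i0
        simp [hm, Ne.symm hm] at e1 e2
        rw [e1, e2]
      rw [hcol, hall, Matrix.smul_apply, Matrix.one_apply, smul_eq_mul]
    refine ⟨z • k - 1, ?_⟩
    rw [hB, hz, Matrix.kronecker_smul, ← Matrix.smul_kronecker]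
    conv_lhs => rw [← Matrix.one_kronecker_one (α := F) (m := α) (n := Fin b)]
    ext ⟨i, i'⟩ ⟨j, j'⟩
    by_cases h1 : i = j <;> by_cases h2 : i' = j' <;> simp [sub_mul, Matrix.one_apply, h1, h2]
  · right
    push Not at hsc
    obtain ⟨u, hu⟩ := hsc
    have hu0 : u ≠ 0 := fun h0 => hu 0 (by simp [h0])
    have hk : IsUnit k.det := by
      have hE : (1 + J * K) * (1 - J * K) = 1 := by
        have : J * K * (J * K) = 0 := by
          rw [Matrix.mul_assoc, ← Matrix.mul_assoc K, hKJ, Matrix.zero_mul, Matrix.mul_zero]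
        rw [mul_sub, mul_one, add_mul, one_mul, this, add_zero, add_sub_cancel_right]
      exact (H5.C7.kron_factors_ne hE e).1
    obtain ⟨χ, hχu, hχs⟩ : ∃ χ : Fin b → F, χ ⬝ᵥ u = 0 ∧ χ ⬝ᵥ (h *ᵥ u) = 1 := by
      obtain ⟨η0, hη0⟩ := exists_dual hu0
      have hne : h *ᵥ u - (η0 ⬝ᵥ (h *ᵥ u)) • u ≠ 0 := sub_ne_zero.2 (hu _)
      obtain ⟨η1, hη1⟩ := exists_dual hne
      refine ⟨η1 - (η1 ⬝ᵥ u) • η0, ?_, ?_⟩
      · rw [sub_dotProduct, smul_dotProduct, hη0, smul_eq_mul, mul_one, sub_self]
      · rw [dotProduct_sub, dotProduct_smul, smul_eq_mul] at hη1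
        rw [sub_dotProduct, smul_dotProduct, smul_eq_mul]
        linear_combination hη1
    have hW : ∀ z, J * (K * lft α z) = lft α (h *ᵥ z) * k - lft α z := by
      intro z
      rw [← Matrix.mul_assoc, hB, Matrix.sub_mul, kron_lft, Matrix.one_mul]
    have h1 : (rgt α χ * J) * (K * lft α u) = k := by
      rw [Matrix.mul_assoc, hW, Matrix.mul_sub, ← Matrix.mul_assoc, rgt_mul_lft, rgt_mul_lft, hχs, hχu,
        one_smul, zero_smul, Matrix.one_mul, sub_zero]
    have h2 : IsUnit (K * lft α u).det := by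
      have := congrArg Matrix.det h1
      rw [Matrix.det_mul] at this
      exact isUnit_of_mul_isUnit_right (this ▸ hk)
    obtain ⟨ψ, hψ, hψu, hψs⟩ := exists_annihilator (F := F) (by rw [Fintype.card_fin]; exact hb) u (h *ᵥ u)
    obtain ⟨z, hz⟩ := exists_dual' hψ
    have h3 : rgt α ψ * J = 0 := by
      have : rgt α ψ * J * (K * lft α u) = 0 := by
        rw [Matrix.mul_assoc, hW, Matrix.mul_sub, ← Matrix.mul_assoc, rgt_mul_lft, rgt_mul_lft, hψs, hψu,
          zero_smul, Matrix.zero_mul, sub_zero]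
      calc rgt α ψ * J = rgt α ψ * J * ((K * lft α u) * (K * lft α u)⁻¹) := by
            rw [Matrix.mul_nonsing_inv _ h2, Matrix.mul_one]
        _ = 0 := by rw [← Matrix.mul_assoc, this, Matrix.zero_mul]
    have h4 : (ψ ⬝ᵥ (h *ᵥ z)) • k = 1 := by
      have := congrArg (rgt α ψ * ·) (hW z)
      simp only [← Matrix.mul_assoc, h3, Matrix.zero_mul, Matrix.mul_sub, rgt_mul_lft, hz, one_smul,
        Matrix.smul_mul, Matrix.one_mul] at this
      exact sub_eq_zero.1 this.symm
    set t := ψ ⬝ᵥ (h *ᵥ z) with ht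
    have ht0 : t ≠ 0 := by intro h0; rw [h0, zero_smul] at h4; exact zero_ne_one h4
    refine ⟨t⁻¹ • h - 1, ?_⟩
    rw [hB, sub_eq_add_neg (t⁻¹ • h), Matrix.kronecker_add, ← neg_one_smul F (1 : Matrix (Fin b) (Fin b) F),
      Matrix.kronecker_smul, Matrix.kronecker_smul, Matrix.one_kronecker_one, neg_one_smul, ← sub_eq_add_neg,
      ← Matrix.smul_kronecker, ← h4, smul_smul, inv_mul_cancel₀ ht0, one_smul]

variable [StarRing F] {M : Subgroup (GL (α × Fin b) F)}

/-- A pure root lives in one factor. -/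
theorem root_split [Finite F] [Nonempty α] (H : Setup M) {B : Matrix Ix Ix F} (hB : Root M B)
    (hp : IsPure (1 + B)) :
    (∃ G : Matrix α α F, B = G ⊗ₖ (1 : Matrix (Fin b) (Fin b) F)) ∨
      ∃ N, B = (1 : Matrix α α F) ⊗ₖ N := by
  have := H.neZero
  obtain ⟨d, P₁, L, -, -, -, hP, rfl, -⟩ := hB
  obtain ⟨k, h, e⟩ := hp
  rw [← Matrix.smul_mul] at e ⊢
  exact split_of_factor H.three (by rw [Matrix.mul_smul, hP, smul_zero]) e

end Split

section Involutions

variable {G : Type*} [Group G] [Finite G]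

/-- Two involutions are conjugate in the group they generate, or commute with a common involution of it. -/
theorem involution_pair {a b : G} (ha : a * a = 1) (hb : b * b = 1) :
    (∃ k ∈ Subgroup.closure {a, b}, k * a * k⁻¹ = b) ∨
      ∃ z ∈ Subgroup.closure {a, b}, z ≠ 1 ∧ z * z = 1 ∧ z * a = a * z ∧ z * b = b * z := by
  have hai : a⁻¹ = a := inv_eq_of_mul_eq_one_right ha
  have hbi : b⁻¹ = b := inv_eq_of_mul_eq_one_right hb
  set r := a * b with hr
  have hrmem : r ∈ Subgroup.closure {a, b} :=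
    mul_mem (Subgroup.subset_closure (by simp)) (Subgroup.subset_closure (by simp))
  have hflip : ∀ n : ℕ, a * r ^ n * a = (r ^ n)⁻¹ := by
    intro n
    have h1 : a * r * a⁻¹ = r⁻¹ := by
      rw [hr, _root_.mul_inv_rev, hai, hbi, ← mul_assoc, ha, one_mul]
    have := congrArg (· ^ n) h1
    simp only [conj_pow, inv_pow] at this
    rwa [hai] at this
  rcases Nat.even_or_odd (orderOf r) with ⟨m, hm⟩ | ⟨m, hm⟩
  · right
    refine ⟨r ^ m, pow_mem hrmem m, ?_, ?_, ?_, ?_⟩
    · have hpos := orderOf_pos r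
      exact pow_ne_one_of_lt_orderOf (by omega) (by omega)
    · rw [← pow_add, ← hm, pow_orderOf_eq_one]
    all_goals
      have hz : (r ^ m)⁻¹ = r ^ m := by
        apply inv_eq_of_mul_eq_one_right
        rw [← pow_add, ← hm, pow_orderOf_eq_one]
      have hca : r ^ m * a = a * r ^ m := by
        calc r ^ m * a = (a * r ^ m * a) * a := by rw [hflip, hz]
          _ = a * r ^ m := by rw [mul_assoc, ha, mul_one]
    · exact hca
    · have hbr : b = a * r := by rw [hr, ← mul_assoc, ha, one_mul]
      rw [hbr, ← mul_assoc, hca, mul_assoc, mul_assoc, ← pow_succ, ← pow_succ']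
  · left
    refine ⟨r ^ m, pow_mem hrmem m, ?_⟩
    have h1 : r ^ m * a = a * (r ^ m)⁻¹ := by
      rw [← hflip m, ← mul_assoc, ← mul_assoc, ha, one_mul]
    have h2 : r ^ m * r ^ m * r = 1 := by
      rw [← pow_add, ← pow_succ, show m + m + 1 = orderOf r by omega, pow_orderOf_eq_one]
    have h3 : (r ^ m)⁻¹ * (r ^ m)⁻¹ = r := by
      rw [← _root_.mul_inv_rev]
      exact inv_eq_of_mul_eq_one_right h2
    rw [h1, mul_assoc, h3, hr, ← mul_assoc, ha, one_mul]

end Involutions

section Range

variable {F : Type*} [Field F] [StarRing F] {α : Type} [Fintype α] [DecidableEq α]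

/-- The range of the adjoint is the orthogonal space of the kernel. -/
theorem mem_range_conjTranspose (S : Matrix α α F) (x : α → F) :
    (∃ y, Sᴴ *ᵥ y = x) ↔ ∀ u : α → F, S *ᵥ u = 0 → sp u x = 0 := by
  constructor
  · rintro ⟨y, rfl⟩ u hu
    rw [sp, dotProduct_mulVec, ← star_mulVec, hu, star_zero, zero_dotProduct]
  · intro hx
    by_contra hno
    have hmem : x ∉ LinearMap.range Sᴴ.mulVecLin := fun ⟨y, hy⟩ => hno ⟨y, hy⟩
    obtain ⟨f, hf, hker⟩ := Submodule.exists_dual_map_eq_bot_of_notMem hmem inferInstance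
    set c : α → F := fun i => f (Pi.single i 1) with hc
    have hf' : ∀ v : α → F, f v = c ⬝ᵥ v := by
      intro v
      conv_lhs => rw [pi_eq_sum_univ' v]
      simp only [map_sum, map_smul, smul_eq_mul, dotProduct, hc]
      exact Finset.sum_congr rfl fun i _ => mul_comm _ _
    have hz : c ᵥ* Sᴴ = 0 := by
      funext j
      have h1 : f (Sᴴ *ᵥ Pi.single j 1) = 0 := by
        have : f (Sᴴ.mulVecLin (Pi.single j 1)) ∈ (LinearMap.range Sᴴ.mulVecLin).map f :=
          Submodule.mem_map_of_mem (LinearMap.mem_range_self _ _)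
        rw [hker, Submodule.mem_bot] at this
        exact this
      rw [hf', dotProduct_mulVec, dotProduct_single, mul_one] at h1
      exact h1
    have hu : S *ᵥ star c = 0 := by
      apply star_injective
      rw [star_mulVec, star_star, hz, star_zero]
    refine hf ?_
    have := hx _ hu
    rwa [sp, star_star, ← hf'] at this

end Range

end Cfsg.Agent.H83.TensorWreathSU
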