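import Cfsg.Agent.H58.Wreath.SU.Shift
import Cfsg.Agent.H99.TensorU.Conjugate

/-!
Roots are pure in characteristic two for right factors of dimension at least four: two transvections with
orthogonal centres against a root.
-/

set_option autoImplicit false
set_option linter.unusedSectionVars false

namespace Cfsg.Agent.H83.TensorWreathSU

open Matrix Module
open Cfsg.Agent.H99.Tensor
open Cfsg.Agent.H99.TensorU (sp ct partner exists_iso_perp exists_iso_in sp_zero_comm sp_add_left sp_add_right sp_sub_right sp_smul_left sp_smul_right sp_zero_right lft_conjTranspose rgt_conjTranspose kron_conjTranspose kron_eq_one)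
open Cfsg.Agent.H58.Wreath.SU
open Cfsg.Agent.H58.Wreath.Sp (uni)
open scoped Kronecker

variable {F : Type*} [Field F] [StarRing F] [Finite F] {α : Type} [Fintype α] [DecidableEq α] {b : ℕ}
  {M : Subgroup (GL (α × Fin b) F)}

local notation "Ix" => α × Fin b

/-- A frame whose root is not pure, with separable invariant, and the dimension of its kernel. -/
def Deg (M : Subgroup (GL (α × Fin b) F)) (k : ℕ) : Prop :=
  ∃ S : Frame M, ¬ IsPure (1 + S.B) ∧ S.Tight ∧ Red S.θ ∧ finrank F (LinearMap.ker S.θ.mulVecLin) = k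

theorem finrank_ker_star (X : Matrix α α F) :
    finrank F (LinearMap.ker Xᴴ.mulVecLin) = finrank F (LinearMap.ker X.mulVecLin) := by
  have h1 := LinearMap.finrank_range_add_finrank_ker Xᴴ.mulVecLin
  have h2 := LinearMap.finrank_range_add_finrank_ker X.mulVecLin
  have h3 : Xᴴ.rank = X.rank := rank_star X
  unfold Matrix.rank at h3
  omega

/-- Roots are pure. -/
theorem root_pure_two [Nonempty α] (H : Setup M) (h2 : (2 : F) = 0) (hb : 4 ≤ b)
    (hdp : ∀ S : Frame M, ¬ IsPure (1 + S.B) → S.Fine → S.Dp) {B : Matrix Ix Ix F} (hB : Root M B) :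
    IsPure (1 + B) := by
  classical
  by_contra hnp₀
  have := H.neZero
  have hc2 : CharP F 2 := CharTwo.of_one_ne_zero_of_two_eq_zero one_ne_zero h2
  -- a frame with the largest kernel
  obtain ⟨k, ⟨S, hnp, hT, hR, hk⟩, hmax⟩ : ∃ k, Deg M k ∧ ∀ k', Deg M k' → k' ≤ k := by
    have hbd : ∀ k', Deg M k' → k' ≤ Fintype.card α := by
      rintro k' ⟨S, -, -, -, rfl⟩
      exact (Submodule.finrank_le _).trans (le_of_eq (finrank_fintype_fun_eq_card F))
    obtain ⟨w, -, hw0, hw⟩ := exists_iso_in H.ns (⊤ : Submodule F (Fin b → F)) (by simp; omega)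
    obtain ⟨S₀, -, hS₀⟩ := H.exists_frame hB hw0 hw
    obtain ⟨S₁, -, hnp₁, hT₁, hR₁, -⟩ := S₀.exists_fine H (hS₀ ▸ hnp₀)
    have h1 : Deg M (finrank F (LinearMap.ker S₁.θ.mulVecLin)) := ⟨S₁, hnp₁, hT₁, hR₁ h2, rfl⟩
    refine ⟨Nat.findGreatest (fun k => Deg M k) (Fintype.card α), ?_, fun k' hk' =>
      Nat.le_findGreatest (hbd k' hk') hk'⟩
    exact Nat.findGreatest_spec (P := fun k => Deg M k) (hbd _ h1) h1
  have hD : S.Dp := hdp S hnp (S.fine_of_tight H hT fun _ => hR)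
  set u₁ := S.w with hu₁
  obtain ⟨v, -, h1v, hv1⟩ := partner H.ns S.hw0 S.hw
  obtain ⟨u₂, hu₂0, hu₂, hperp⟩ := exists_iso_perp H.ns ![u₁, v] (by rw [Fintype.card_fin]; omega)
  have h12 : sp u₁ u₂ = 0 := hperp 0
  have h21 : sp u₂ u₁ = 0 := sp_zero_comm.1 h12
  have h2v : sp u₂ v = 0 := sp_zero_comm.1 (hperp 1)
  have hind : ∀ a c : F, a • u₁ + c • u₂ = 0 → a = 0 ∧ c = 0 := by
    intro a c h
    have hv2 : sp v u₂ = 0 := hperp 1
    have ha : a = 0 := by
      have e := congrArg (sp v) h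
      rw [sp_add_right, sp_smul_right, sp_smul_right, hv1, hv2, sp_zero_right] at e
      linear_combination e
    rw [ha, zero_smul, zero_add, smul_eq_zero] at h
    exact ⟨ha, h.resolve_right hu₂0⟩
  -- the plane
  let U : Set (Fin b → F) := {u | ∃ a c : F, u = a • u₁ + c • u₂}
  have hU1 : u₁ ∈ U := ⟨1, 0, by simp⟩
  have hU2 : u₂ ∈ U := ⟨0, 1, by simp⟩
  have hUadd : ∀ {x y}, x ∈ U → y ∈ U → x + y ∈ U := by
    rintro x y ⟨a, c, rfl⟩ ⟨a', c', rfl⟩
    exact ⟨a + a', c + c', by module⟩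
  have hUperp : ∀ {x y}, x ∈ U → y ∈ U → sp x y = 0 := by
    rintro x y ⟨a, c, rfl⟩ ⟨a', c', rfl⟩
    simp only [sp_add_left, sp_add_right, sp_smul_left, sp_smul_right, h12, h21, hu₂,
      show sp u₁ u₁ = 0 from S.hw]
    ring
  -- all contractions from the plane have the same kernel
  have hCT : S.Cᴴ = S.P₁ᴴ * lft α u₁ := S.C_conjTranspose
  have hkC : finrank F (LinearMap.ker S.C.mulVecLin) = k := by
    rw [← finrank_ker_star, ← hk]
    suffices e : LinearMap.ker S.Cᴴ.mulVecLin = LinearMap.ker S.θ.mulVecLin by rw [e]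
    refine le_antisymm (fun a (ha : S.Cᴴ *ᵥ a = 0) => ?_) (fun a ha => hT a ha)
    change S.θ *ᵥ a = 0
    rw [S.θ_eq, smul_mulVec, ← mulVec_mulVec, ha, mulVec_zero, smul_zero]
  have hker : ∀ u ∈ U, u ≠ 0 → ∀ a : α → F, (rgt α (star u) * S.P₁) *ᵥ a = 0 ↔ S.C *ᵥ a = 0 := by
    intro u hu hu0
    set Cu := rgt α (star u) * S.P₁ with hCu
    have hsub : LinearMap.ker S.C.mulVecLin ≤ LinearMap.ker Cu.mulVecLin := by
      intro a (ha : S.C *ᵥ a = 0)
      change Cu *ᵥ a = 0
      refine H99.TensorU.eq_zero_of_sp fun x => ?_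
      obtain ⟨f, hf⟩ := hD u (hUperp hU1 hu) x
      rw [mulVec_add, mulVec_mulVec, mulVec_mulVec, ← S.C_conjTranspose, add_eq_zero_iff_eq_neg] at hf
      have e : Cuᴴ *ᵥ x = -(S.Cᴴ *ᵥ f) := by
        rw [hCu, conjTranspose_mul, rgt_conjTranspose, hf]
      have e2 := (mem_range_conjTranspose S.C (Cuᴴ *ᵥ x)).1 ⟨-f, by rw [mulVec_neg, e]⟩ a ha
      rw [sp, dotProduct_mulVec, ← star_mulVec] at e2
      exact sp_zero_comm.1 e2
    have hle : finrank F (LinearMap.ker Cu.mulVecLin) ≤ k := by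
      obtain ⟨T, hTw, hTB⟩ := H.exists_frame S.isRoot hu0 (hUperp hu hu)
      obtain ⟨T', -, hnp', hT', hR', hker'⟩ := T.exists_fine H (hTB ▸ hnp)
      refine le_trans ?_ (hmax _ ⟨T', hnp', hT', hR' h2, rfl⟩)
      rw [← finrank_ker_star]
      refine Submodule.finrank_mono fun a (ha : Cuᴴ *ᵥ a = 0) => hker' a ?_
      rw [H58.Wreath.SU.Frame.θ, ct, hTw, hTB, H58.Wreath.SU.Frame.B, Matrix.mul_smul, Matrix.smul_mul, smul_mulVec, smul_mulVec,
        Matrix.mul_assoc, Matrix.mul_assoc S.P₁, ← mulVec_mulVec, ← mulVec_mulVec,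
        show S.P₁ᴴ * lft α u = Cuᴴ by rw [hCu, conjTranspose_mul, rgt_conjTranspose], ha, mulVec_zero,
        mulVec_zero, smul_zero, smul_zero]
    have heq := Submodule.eq_of_le_of_finrank_le hsub (hkC ▸ hle)
    intro a
    change a ∈ LinearMap.ker Cu.mulVecLin ↔ a ∈ LinearMap.ker S.C.mulVecLin
    rw [heq]
  have hrange : ∀ u ∈ U, u ≠ 0 → ∀ u' ∈ U, u' ≠ 0 → ∀ x : α → F, ∃ y,
      S.P₁ᴴ *ᵥ (lft α u *ᵥ y + lft α u' *ᵥ x) = 0 := by
    intro u hu hu0 u' hu' hu'0 x
    have e : ∀ u : Fin b → F, (rgt α (star u) * S.P₁)ᴴ = S.P₁ᴴ * lft α u := fun u => by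
      rw [conjTranspose_mul, rgt_conjTranspose]
    obtain ⟨y, hy⟩ := (mem_range_conjTranspose (rgt α (star u) * S.P₁) ((S.P₁ᴴ * lft α u') *ᵥ x)).2 fun z hz =>
      (mem_range_conjTranspose (rgt α (star u') * S.P₁) _).1 ⟨x, by rw [e]⟩ z
        ((hker u' hu' hu'0 z).2 ((hker u hu hu0 z).1 hz))
    refine ⟨-y, ?_⟩
    rw [e] at hy
    rw [mulVec_add, mulVec_mulVec, mulVec_mulVec, mulVec_neg, hy, neg_add_cancel]
  -- the two involutions
  set d := S.d with hd
  set Cm := rootA α u₁ d + rootA α u₂ d with hCm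
  have hAA : ∀ {x y}, x ∈ U → y ∈ U → rootA α x d * rootA α y d = 0 := by
    intro x y hx hy
    simp only [rootA, Matrix.smul_mul, Matrix.mul_smul, Matrix.mul_assoc]
    rw [← Matrix.mul_assoc (rgt α (star x)), rgt_star_lft, hUperp hx hy, zero_smul, Matrix.zero_mul,
      Matrix.mul_zero, smul_zero, smul_zero]
  have hA1Cm : rootA α u₁ d * Cm = 0 := by
    rw [hCm, Matrix.mul_add, hAA hU1 hU1, hAA hU1 hU2, add_zero]
  have hCm2 : Cm * Cm = 0 := by
    rw [hCm, Matrix.add_mul, Matrix.mul_add, Matrix.mul_add, hAA hU1 hU1, hAA hU1 hU2, hAA hU2 hU1, hAA hU2 hU2]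
    simp
  set gC : GL Ix F := uni Cm hCm2 1
  set gB : GL Ix F := uni S.B S.B_sq 1
  have hgCv : (gC : Matrix Ix Ix F) = 1 + Cm := by simp [gC, uni]
  have hgBv : (gB : Matrix Ix Ix F) = 1 + S.B := by simp [gB, uni]
  have hgBM : gB ∈ M := by
    obtain ⟨y, hy, e⟩ := H.root_one S.isRoot
    rwa [show gB = y from Units.ext (hgBv.trans e.symm)]
  have hgCM : gC ∈ M := by
    have h1 := (H.root_one (H.root_slot (α := α) S.hw0 S.hw S.hd0 S.hd)).mul
      (H.root_one (H.root_slot (α := α) hu₂0 hu₂ S.hd0 S.hd))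
    rw [Matrix.add_mul, Matrix.one_mul, Matrix.mul_add, Matrix.mul_one, hAA hU1 hU2, add_zero, add_comm (1 : Matrix Ix Ix F) (rootA α u₂ S.d),
      add_assoc, add_comm] at h1
    obtain ⟨y, hy, e⟩ := h1
    rwa [show gC = y from Units.ext (by rw [hgCv, e, hCm, hu₁, hd]; abel)]
  have hsq : ∀ (X : Matrix Ix Ix F), X * X = 0 → (1 + X) * (1 + X) = 1 := by
    intro X hX
    rw [Matrix.add_mul, Matrix.mul_add, Matrix.mul_add, hX, Matrix.one_mul, Matrix.one_mul, Matrix.mul_one,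
      add_zero, add_assoc, ← two_smul F, h2, zero_smul, add_zero]
  have hgC2 : gC * gC = 1 := Units.ext (by rw [Units.val_mul, hgCv]; exact hsq _ hCm2)
  have hgB2 : gB * gB = 1 := Units.ext (by rw [Units.val_mul, hgBv]; exact hsq _ S.B_sq)
  have hclM : Subgroup.closure {gC, gB} ≤ M :=
    (Subgroup.closure_le _).2 (by rintro g (rfl | rfl) <;> assumption)
  -- vectors seeing the centres
  obtain ⟨v', -, h2v', -⟩ := partner H.ns hu₂0 hu₂
  set v₂ := v' - sp u₁ v' • v with hv₂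
  have h12' : sp u₁ v₂ = 0 := by rw [hv₂, sp_sub_right, sp_smul_right, h1v]; ring
  have h22' : sp u₂ v₂ = 1 := by rw [hv₂, sp_sub_right, sp_smul_right, h2v, h2v']; ring
  have hCm1 : Cm * lft α v = d • lft α u₁ := by
    rw [hCm, rootA, rootA, Matrix.add_mul, Matrix.smul_mul, Matrix.smul_mul, Matrix.mul_assoc, Matrix.mul_assoc,
      rgt_star_lft, rgt_star_lft, h1v, h2v, one_smul, zero_smul, Matrix.mul_one, Matrix.mul_zero, smul_zero,
      add_zero]
  have hCm2' : Cm * lft α v₂ = d • lft α u₂ := by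
    rw [hCm, rootA, rootA, Matrix.add_mul, Matrix.smul_mul, Matrix.smul_mul, Matrix.mul_assoc, Matrix.mul_assoc,
      rgt_star_lft, rgt_star_lft, h12', h22', one_smul, zero_smul, Matrix.mul_one, Matrix.mul_zero, smul_zero,
      zero_add]
  have hψ : ∀ {x y : Fin b → F}, x ≠ 0 → (∀ t : F, y ≠ t • x) → ∃ ψ : Fin b → F, ψ ⬝ᵥ x = 0 ∧ ψ ⬝ᵥ y = 1 := by
    intro x y hx hy
    obtain ⟨η0, hη0⟩ := exists_dual hx
    obtain ⟨η1, hη1⟩ := exists_dual (sub_ne_zero.2 (hy (η0 ⬝ᵥ y)))
    refine ⟨η1 - (η1 ⬝ᵥ x) • η0, ?_, ?_⟩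
    · rw [sub_dotProduct, smul_dotProduct, hη0, smul_eq_mul, mul_one, sub_self]
    · rw [dotProduct_sub, dotProduct_smul, smul_eq_mul] at hη1
      rw [sub_dotProduct, smul_dotProduct, smul_eq_mul]
      linear_combination hη1
  rcases involution_pair hgC2 hgB2 with ⟨g, hg, hconj⟩ | ⟨z, hz, hz1, hz2, hzC, hzB⟩
  · -- a sum of two transvections is not a root
    set X := (g : Matrix Ix Ix F)
    have hgM : InM M X := ⟨g, hclM hg, rfl⟩
    have e : X * Cm = S.B * X := by
      have := congrArg Units.val (mul_inv_eq_iff_eq_mul.1 hconj)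
      rw [Units.val_mul, Units.val_mul, hgCv, hgBv, Matrix.mul_add, Matrix.add_mul, Matrix.mul_one,
        Matrix.one_mul] at this
      exact add_left_cancel this
    set Q := Xᴴ * S.P₁ with hQ
    have hfac : ∀ Y : Matrix Ix α F, Cm * Y = Q * (S.d₁ • (S.P₁ᴴ * (X * Y))) := by
      intro Y
      calc Cm * Y = Xᴴ * (X * Cm) * Y := by rw [← Matrix.mul_assoc, H.unit' hgM, Matrix.one_mul]
        _ = _ := by
          rw [e, hQ, H58.Wreath.SU.Frame.B]
          simp only [Matrix.smul_mul, Matrix.mul_smul, Matrix.mul_assoc]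
    have e1 := hfac (lft α v); rw [hCm1] at e1
    have e2 := hfac (lft α v₂); rw [hCm2'] at e2
    set R₁ := S.d₁ • (S.P₁ᴴ * (X * lft α v))
    set R₂ := S.d₁ • (S.P₁ᴴ * (X * lft α v₂))
    have hinj : Function.Injective (R₁.mulVecLin.coprod R₂.mulVecLin) := by
      refine (injective_iff_map_eq_zero _).2 fun p hp => ?_
      have h := congrArg (Q *ᵥ ·) (show R₁ *ᵥ p.1 + R₂ *ᵥ p.2 = 0 from hp)
      simp only [mulVec_add, mulVec_mulVec, mulVec_zero, ← e1, ← e2, smul_mulVec, ← smul_add] at h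
      have h' := (smul_eq_zero.1 h).resolve_left S.hd0
      have h0 : ∀ x, rgt α (star x) *ᵥ (lft α u₁ *ᵥ p.1 + lft α u₂ *ᵥ p.2) = sp x u₁ • p.1 + sp x u₂ • p.2 :=
        fun x => by
          rw [mulVec_add, mulVec_mulVec, mulVec_mulVec, rgt_star_lft, rgt_star_lft, smul_mulVec, smul_mulVec,
            one_mulVec, one_mulVec]
      have f1 := h0 v
      have f2 := h0 v₂
      rw [h', mulVec_zero, hv1, show sp v u₂ = 0 from hperp 1, one_smul, zero_smul, add_zero] at f1
      rw [h', mulVec_zero, show sp v₂ u₁ = 0 from sp_zero_comm.1 h12',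
        ← H99.TensorU.sp_star u₂ v₂, h22', star_one, one_smul, zero_smul, zero_add] at f2
      exact Prod.ext f1.symm f2.symm
    have := LinearMap.finrank_le_finrank_of_injective hinj
    rw [Module.finrank_prod, finrank_fintype_fun_eq_card] at this
    have : 0 < Fintype.card α := Fintype.card_pos
    omega
  · -- a common involution
    have hzM : InM M (z : Matrix Ix Ix F) := ⟨z, hclM hz, rfl⟩
    set Z := (z : Matrix Ix Ix F) with hZ
    have hZ2 : Z * Z = 1 := by rw [hZ, ← Units.val_mul, hz2, Units.val_one]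
    have hZs : Zᴴ = Z := by
      calc Zᴴ = Zᴴ * (Z * Z) := by rw [hZ2, Matrix.mul_one]
        _ = Z := by rw [← Matrix.mul_assoc, H.unit' hzM, Matrix.one_mul]
    have hcomm : ∀ {X : Matrix Ix Ix F} {g : GL Ix F}, (g : Matrix Ix Ix F) = 1 + X → z * g = g * z →
        Z * X = X * Z := by
      intro X g hg h
      have := congrArg Units.val h
      rw [Units.val_mul, Units.val_mul, hg, Matrix.mul_add, Matrix.add_mul, Matrix.mul_one, Matrix.one_mul] at this
      exact add_left_cancel this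
    have hZC : Z * Cm = Cm * Z := hcomm hgCv hzC
    have hZB : Z * S.B = S.B * Z := hcomm hgBv hzB
    have hfix : ∀ x : Ix → F, Cm *ᵥ x = 0 → S.B *ᵥ x = 0 → Z *ᵥ x = x := by
      intro x hx hx'
      let K : Subgroup (GL Ix F) :=
        { carrier := {g | (g : Matrix Ix Ix F) *ᵥ x = x}
          one_mem' := by simp
          mul_mem' := fun {a c} ha hc => by
            change ((a * c : GL Ix F) : Matrix Ix Ix F) *ᵥ x = x
            rw [Units.val_mul, ← mulVec_mulVec, hc, ha]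
          inv_mem' := fun {a} ha => by
            have ha' : (a : Matrix Ix Ix F) *ᵥ x = x := ha
            change ((a⁻¹ : GL Ix F) : Matrix Ix Ix F) *ᵥ x = x
            nth_rw 1 [← ha']
            rw [mulVec_mulVec, Units.inv_mul, one_mulVec] }
      refine (Subgroup.closure_le K).2 ?_ hz
      rintro g (rfl | rfl)
      · change (gC : Matrix Ix Ix F) *ᵥ x = x
        rw [hgCv, add_mulVec, one_mulVec, hx, add_zero]
      · change (gB : Matrix Ix Ix F) *ᵥ x = x
        rw [hgBv, add_mulVec, one_mulVec, hx', add_zero]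
    -- the conjugate transvection kills a layer
    set X := Z * rootA α u₁ d * Zᴴ with hX
    have hXroot : Root M X := H.root_conj (H.root_slot S.hw0 S.hw S.hd0 S.hd) hzM
    have hXC : X * Cm = 0 := by
      rw [hX, hZs, Matrix.mul_assoc, hZC, ← Matrix.mul_assoc, Matrix.mul_assoc Z, hA1Cm, Matrix.mul_zero,
        Matrix.zero_mul]
    have hX1 : X * lft α u₁ = 0 := by
      have := congrArg (X * ·) hCm1
      simp only [← Matrix.mul_assoc, hXC, Matrix.zero_mul, Matrix.mul_smul] at this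
      exact (smul_eq_zero.1 this.symm).resolve_left S.hd0
    have hXp : IsPure (1 + X) := H.root_ct_zero hXroot S.hw0 S.hw (by
      rw [ct, Matrix.mul_assoc, hX1, Matrix.mul_zero])
    obtain ⟨g, h, hgh⟩ : IsPure Z := by
      rcases root_split H hXroot hXp with ⟨G, hG⟩ | ⟨N, hN⟩
      · exfalso
        rw [hG, kron_lft, one_mulVec] at hX1
        have hG0 : G = 0 := lft_injective S.hw0 (hX1.trans (Matrix.mul_zero _).symm)
        rw [hG0, zero_kronecker] at hG
        obtain ⟨d', P', L', hd'0, -, hL', -, hXd, -⟩ := hXroot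
        rw [hXd, smul_eq_zero, or_iff_right hd'0] at hG
        have := congrArg (L' * ·) hG
        simp only [← Matrix.mul_assoc, hL', Matrix.one_mul, Matrix.mul_zero] at this
        obtain ⟨i⟩ := ‹Nonempty α›
        have hP' : P' = 0 := by
          have := congrArg Matrix.conjTranspose this
          rwa [conjTranspose_conjTranspose, conjTranspose_zero] at this
        rw [hP', Matrix.mul_zero] at hL'
        exact zero_ne_one hL'
      · exact H.pure_of_map hzM S.hw0 S.hw S.hd0 S.hd hN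
    obtain ⟨l, hl0, g, h, hgh, hg2, hh2⟩ : ∃ l : F, l ≠ 0 ∧ ∃ (g : Matrix α α F) (h : Matrix (Fin b) (Fin b) F),
        Z = g ⊗ₖ h ∧ g * g = 1 ∧ h * h = 1 := by
      rw [hgh, ← mul_kronecker_mul] at hZ2
      obtain ⟨μ, hμ0, hgμ, hhμ⟩ := kron_eq_one hZ2
      obtain ⟨l, hl⟩ := (Finite.injective_iff_surjective.1 (frobenius F 2).injective) μ
      rw [frobenius_def, sq] at hl
      have hl0 : l ≠ 0 := fun h0 => hμ0 (by rw [← hl, h0, zero_mul])
      refine ⟨l, hl0, l⁻¹ • g, l • h, ?_, ?_, ?_⟩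
      · rw [smul_kronecker, kronecker_smul, smul_smul, inv_mul_cancel₀ hl0, one_smul, hgh]
      · rw [Matrix.smul_mul, Matrix.mul_smul, hgμ, smul_smul, smul_smul, ← hl]
        rw [show l⁻¹ * l⁻¹ * (l * l) = 1 by field_simp, one_smul]
      · rw [Matrix.smul_mul, Matrix.mul_smul, hhμ, smul_smul, smul_smul, ← hl]
        rw [show l * l * (l * l)⁻¹ = 1 by field_simp, one_smul]
    have hgu : IsUnit g.det := IsUnit.of_mul_eq_one _ (by rw [← det_mul, hg2, det_one])
    -- the plane is invariant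
    have hhU : ∀ u, (u = u₁ ∨ u = u₂) → h *ᵥ u ∈ U := by
      intro u hu
      obtain ⟨x, hx⟩ : ∃ x, Cm * lft α x = d • lft α u := by
        rcases hu with rfl | rfl
        · exact ⟨v, hCm1⟩
        · exact ⟨v₂, hCm2'⟩
      have e : Z * Cm * lft α x = Z * (d • lft α u) := by
        rw [Matrix.mul_assoc]; exact congrArg (Z * ·) hx
      rw [hZC, Matrix.mul_smul, Matrix.mul_assoc, hgh, kron_lft, kron_lft] at e
      set y := h *ᵥ x
      have e2 : lft α (h *ᵥ u) * g = lft α u₁ * (sp u₁ y • g) + lft α u₂ * (sp u₂ y • g) := by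
        have e3 : Cm * lft α y = d • (lft α u₁ * (sp u₁ y • (1 : Matrix α α F)) + lft α u₂ * (sp u₂ y • (1 : Matrix α α F))) := by
          rw [hCm, rootA, rootA, Matrix.add_mul, Matrix.smul_mul, Matrix.smul_mul, Matrix.mul_assoc,
            Matrix.mul_assoc, rgt_star_lft, rgt_star_lft, smul_add]
        rw [← Matrix.mul_assoc, e3, Matrix.smul_mul] at e
        rw [← smul_right_injective (Matrix Ix α F) S.hd0 |>.eq_iff, ← e, Matrix.add_mul]
        simp only [Matrix.mul_assoc, Matrix.smul_mul, Matrix.one_mul]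
        rfl
      have e4 : lft α (h *ᵥ u) = lft α (sp u₁ y • u₁ + sp u₂ y • u₂) := by
        have := congrArg (· * g⁻¹) e2
        simp only [Matrix.mul_smul, ← lft_smul, ← Matrix.smul_mul, ← Matrix.add_mul, ← lft_add,
          Matrix.mul_nonsing_inv_cancel_right _ _ hgu] at this
        exact this
      obtain ⟨i⟩ := ‹Nonempty α›
      exact ⟨_, _, funext fun j => by simpa [lft_apply] using congrFun (congrFun e4 (i, j)) i⟩
    obtain ⟨u₀, u₃, r, hu₀U, hu₃U, hu₀0, hu₃0, hind₀, hfix₀, hh₃⟩ : ∃ (u₀ u₃ : Fin b → F) (r : F),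
        u₀ ∈ U ∧ u₃ ∈ U ∧ u₀ ≠ 0 ∧ u₃ ≠ 0 ∧ (∀ t : F, u₃ ≠ t • u₀) ∧ h *ᵥ u₀ = u₀ ∧ h *ᵥ u₃ = r • u₀ + u₃ := by
      by_cases hall : h *ᵥ u₁ = u₁ ∧ h *ᵥ u₂ = u₂
      · refine ⟨u₁, u₂, 0, hU1, hU2, S.hw0, hu₂0, fun t ht => ?_, hall.1, by rw [hall.2, zero_smul, zero_add]⟩
        exact one_ne_zero (hind (-t) 1 (by rw [ht]; module)).2
      obtain ⟨u, hu, hne⟩ : ∃ u, (u = u₁ ∨ u = u₂) ∧ h *ᵥ u ≠ u := by
        by_cases h1 : h *ᵥ u₁ = u₁
        · exact ⟨u₂, Or.inr rfl, fun h3 => hall ⟨h1, h3⟩⟩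
        · exact ⟨u₁, Or.inl rfl, h1⟩
      have huu : ∀ x : Fin b → F, x + x = 0 := fun x => by rw [← two_smul F, h2, zero_smul]
      have huU : u ∈ U := by rcases hu with rfl | rfl <;> assumption
      have hu0 : u ≠ 0 := by rcases hu with rfl | rfl; exacts [S.hw0, hu₂0]
      have hfix₀ : h *ᵥ (h *ᵥ u + u) = h *ᵥ u + u := by
        rw [mulVec_add, mulVec_mulVec, hh2, one_mulVec, add_comm]
      refine ⟨h *ᵥ u + u, u, 1, hUadd (hhU u hu) huU, huU, fun h0 => hne ?_, hu0, fun t ht => hne ?_, hfix₀, ?_⟩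
      · rw [add_eq_zero_iff_eq_neg.1 h0, neg_eq_iff_add_eq_zero, huu]
      · conv_lhs => rw [ht, mulVec_smul, hfix₀, ← ht]
      · rw [one_smul, add_assoc, huu, add_zero]
    -- the left part is trivial
    have hg1 : g = 1 := by
      obtain ⟨ψ, hψ0, hψ3⟩ := hψ hu₀0 hind₀
      refine Matrix.ext_of_mulVec_single fun j => ?_
      obtain ⟨y, hy⟩ := hrange u₀ hu₀U hu₀0 u₃ hu₃U hu₃0 (Pi.single j 1)
      set x := lft α u₀ *ᵥ y + lft α u₃ *ᵥ (Pi.single j 1 : α → F)
      have hBx : S.B *ᵥ x = 0 := by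
        rw [H58.Wreath.SU.Frame.B, smul_mulVec, ← mulVec_mulVec, hy, mulVec_zero, smul_zero]
      have hCx : Cm *ᵥ x = 0 := by
        simp only [x, hCm, rootA, Matrix.add_mul, Matrix.smul_mul, add_mulVec, smul_mulVec, mulVec_add, mulVec_mulVec, Matrix.mul_assoc, rgt_star_lft,
          hUperp hU1 hu₀U, hUperp hU2 hu₀U, hUperp hU1 hu₃U, hUperp hU2 hu₃U, zero_smul, Matrix.mul_zero,
          zero_mulVec, smul_zero, add_zero]
      have e := congrArg (rgt α ψ *ᵥ ·) (hfix x hCx hBx)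
      simp only [x, hgh, mulVec_add, mulVec_mulVec, kron_lft, hfix₀, hh₃, ← Matrix.mul_assoc, rgt_mul_lft, hψ0, hψ3,
        dotProduct_add, dotProduct_smul, smul_zero, zero_add, zero_smul, Matrix.zero_mul, zero_mulVec, one_smul,
        Matrix.one_mul, one_mulVec] at e
      rw [one_mulVec]
      exact e
    subst hg1
    -- an involution of the right factor commuting with the root
    have hhs : hᴴ = h := by
      rw [hgh, kron_conjTranspose, conjTranspose_one] at hZs
      obtain ⟨i⟩ := ‹Nonempty α›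
      ext a c
      simpa using congrFun (congrFun hZs (i, a)) (i, c)
    set N := h - 1 with hN
    have hNN : N * N = 0 := by
      rw [hN, Matrix.sub_mul, Matrix.mul_sub, Matrix.one_mul, Matrix.mul_one, hh2]
      have : (2 : F) • ((1 : Matrix (Fin b) (Fin b) F) - h) = 0 := by rw [h2, zero_smul]
      rw [← this]; module
    have hNs : Nᴴ = N := by rw [hN, conjTranspose_sub, hhs, conjTranspose_one]
    obtain ⟨x, hx⟩ : ∃ x, N *ᵥ x ≠ 0 := by
      by_contra hc
      push Not at hc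
      have hN0 : N = 0 := Matrix.ext_of_mulVec_single fun j => by rw [hc, Matrix.zero_mulVec]
      rw [hN, sub_eq_zero] at hN0
      refine hz1 (Units.ext ?_)
      rw [← hZ, hgh, hN0, one_kronecker_one, Units.val_one]
    have hnn : sp (N *ᵥ x) (N *ᵥ x) = 0 := by
      rw [sp, star_mulVec, ← dotProduct_mulVec, mulVec_mulVec, hNs, hNN, zero_mulVec, dotProduct_zero]
    refine hnp (H.root_ct_zero S.isRoot hx hnn ?_)
    have hNB : (1 : Matrix α α F) ⊗ₖ N * S.B = S.B * ((1 : Matrix α α F) ⊗ₖ N) := by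
      have e : (1 : Matrix α α F) ⊗ₖ N = Z - 1 := by
        rw [hgh, hN, sub_eq_add_neg, kronecker_add, ← neg_one_smul F (1 : Matrix (Fin b) (Fin b) F),
          kronecker_smul, one_kronecker_one, neg_one_smul, ← sub_eq_add_neg]
      rw [e, Matrix.sub_mul, Matrix.mul_sub, hZB, Matrix.one_mul, Matrix.mul_one]
    have e1 : rgt α (star (N *ᵥ x)) = rgt α (star x) * ((1 : Matrix α α F) ⊗ₖ N) := by
      rw [rgt_kron, Matrix.one_mul, star_mulVec, hNs]
    have e2 : lft α (N *ᵥ x) = ((1 : Matrix α α F) ⊗ₖ N) * lft α x := by rw [kron_lft, Matrix.mul_one]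
    set T := (1 : Matrix α α F) ⊗ₖ N with hTd
    have hTT : T * T = 0 := by rw [hTd, ← mul_kronecker_mul, hNN, kronecker_zero]
    rw [ct, e1, e2]
    calc rgt α (star x) * T * S.B * (T * lft α x) = rgt α (star x) * (T * S.B * T * lft α x) := by
          simp only [Matrix.mul_assoc]
      _ = 0 := by rw [hNB, Matrix.mul_assoc S.B, hTT, Matrix.mul_zero, Matrix.zero_mul, Matrix.mul_zero]

end Cfsg.Agent.H83.TensorWreathSU
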